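import Cfsg.Agent.H0.BC.B

/-! Irreducible Brauer characters: simple modules, action of automorphisms, orbit sums. -/

set_option autoImplicit false

open Cfsg MonoidAlgebra H5 H7 H8 H21 Finset Module H0.BC

namespace H0.L2

variable {G : Type*} [Group G] [Finite G] {p : ℕ} {M : Ideal AlgInt} (W : Wed G M)
  (hM : IsPModular p M)

theorem bc_sum {X : Type*} [AddCommGroup X] [Module (kk M) X] {ρ : G →* End (kk M) X} {β : G → ℂ}
    (h : IsBC ρ β) (h0 : ∀ g, p ∣ orderOf g → β g = 0) :
    β = ∑ j, (rnk (op ρ (W.i j)) : ℂ) • W.φ hM j := by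
  have := W.rp_eq_sum_φ hM h.cl
  simp only [h.ev _ (W.lift_i _).mem (W.lift_i _).idem] at this
  rw [← this]
  funext g
  by_cases hg : p ∣ orderOf g <;> simp [pRegularPart, IsPRegular, hg, h0]

theorem φ_sing (j : Fin W.L) (g : G) (hg : p ∣ orderOf g) : W.φ hM j g = 0 := by
  rw [← W.rp_φ hM j]
  simp [pRegularPart, IsPRegular, hg]

/-- the simple module of a Wedderburn component -/
noncomputable def ρj (j : Fin W.L) : G →* End (kk M) (Fin (W.n j) → kk M) where
  toFun g := Matrix.toLin' (W.π (single g 1) j)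
  map_one' := by rw [← one_def, map_one, Pi.one_apply, Matrix.toLin'_one]; rfl
  map_mul' a b := by
    rw [End.mul_eq_comp, ← Matrix.toLin'_mul, ← Pi.mul_apply, ← map_mul, single_mul_single, one_mul]

omit [Finite G] in
theorem lf_ρj (j : Fin W.L) (x : (kk M)[G]) : lf (ρj W j) x = Matrix.toLin' (W.π x j) := by
  induction x using MonoidAlgebra.induction_linear with
  | zero => simp
  | add x y hx hy => simp only [map_add, hx, hy, Pi.add_apply]
  | single g c =>
    rw [lf_single, show single g c = c • single g (1 : kk M) by simp, map_smul, Pi.smul_apply,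
      map_smul]
    rfl

theorem bc_ρj (j : Fin W.L) : IsBC (ρj W j) (W.φ hM j) :=
  ⟨W.isClassFunction_φ hM j, fun e he hi => by
    rw [(⟨he, hi, rfl⟩ : W.Lift e _).ev_φ hM j, op, lf_ρj]; rfl⟩

theorem simple_ρj (j : Fin W.L) (S : Submodule (kk M) (Fin (W.n j) → kk M))
    (h : ∀ g, ∀ v ∈ S, ρj W j g v ∈ S) (h0 : S ≠ ⊥) : S = ⊤ := by
  classical
  have h1 : ∀ x : (kk M)[G], ∀ v ∈ S, lf (ρj W j) x v ∈ S := fun x v hv => by
    induction x using MonoidAlgebra.induction_linear with
    | zero => simp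
    | add x y hx hy => simpa using S.add_mem hx hy
    | single g c => simpa using S.smul_mem c (h g v hv)
  obtain ⟨v, hv, v0⟩ := (Submodule.ne_bot_iff _).1 h0
  obtain ⟨i, hi⟩ := Function.ne_iff.1 v0
  refine eq_top_iff.2 fun w _ => ?_
  obtain ⟨x, hx⟩ := W.surj (Pi.single j (Matrix.vecMulVec w (Pi.single i (v i)⁻¹)))
  have := h1 x v hv
  rwa [lf_ρj, hx, Pi.single_eq_same, Matrix.toLin'_apply, Matrix.vecMulVec_mulVec,
    single_dotProduct, inv_mul_cancel₀ hi, MulOpposite.op_one, one_smul] at this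

theorem φ_aut_sum (α : G ≃* G) : ∃ a : Fin W.L → Fin W.L → ℕ, ∀ j,
    (fun g => W.φ hM j (α g)) = ∑ l, (a j l : ℂ) • W.φ hM l :=
  ⟨_, fun j => bc_sum W hM ((bc_ρj W hM j).comp α.toMonoidHom) fun g hg =>
    φ_sing W hM j _ (by simpa using hg)⟩

theorem ex_perm (α : G ≃* G) :
    ∃ s : Equiv.Perm (Fin W.L), ∀ j g, W.φ hM (s j) g = W.φ hM j (α g) := by
  classical
  have li := W.linearIndependent_φ hM
  have key : ∀ (α : G ≃* G) (a b : Fin W.L → Fin W.L → ℕ),
      (∀ j, (fun g => W.φ hM j (α g)) = ∑ l, (a j l : ℂ) • W.φ hM l) →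
      (∀ j, (fun g => W.φ hM j (α.symm g)) = ∑ l, (b j l : ℂ) • W.φ hM l) →
      ∀ j m, ∑ l, a j l * b l m = if m = j then 1 else 0 := fun α a b ha hb j m => by
    have := Fintype.linearIndependent_iff.1 li
      (fun m => ∑ l, (a j l : ℂ) * b l m - if m = j then 1 else 0) (by
        funext g
        have e := congrFun (ha j) (α.symm g)
        simp only [MulEquiv.apply_symm_apply, Finset.sum_apply, Pi.smul_apply, congrFun (hb _) g,
          smul_eq_mul, mul_sum] at e
        simp only [sub_smul, sum_sub_distrib, ite_smul, one_smul, zero_smul, sum_ite_eq', mem_univ,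
          if_true, Pi.sub_apply, Pi.zero_apply, e, Finset.sum_apply, Pi.smul_apply, smul_eq_mul, sum_mul,
          mul_assoc, ite_apply]
        rw [sum_comm, sub_self]) m
    rw [sub_eq_zero] at this
    exact_mod_cast this
  obtain ⟨a, ha⟩ := φ_aut_sum W hM α
  obtain ⟨b, hb⟩ := φ_aut_sum W hM α.symm
  have k1 := key α a b ha hb
  have k2 := key α.symm b a hb ha
  have : ∀ j, ∃ l, ∀ g, W.φ hM l g = W.φ hM j (α g) := fun j => by
    have h1 := k1 j j
    rw [if_pos rfl] at h1
    obtain ⟨l, -, hl⟩ := exists_ne_zero_of_sum_ne_zero (h1 ▸ one_ne_zero)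
    have h2 : a j l * b l j + ∑ m ∈ univ.erase l, a j m * b m j = 1 := by
      rw [add_sum_erase _ (fun m => a j m * b m j) (mem_univ l), h1]
    have h3 : a j l = 1 := Nat.eq_one_of_mul_eq_one_right (n := b l j) (by omega)
    have h4 : ∀ m, m ≠ l → a j m = 0 := fun m hm => by
      by_contra h5
      have h6 := k2 m m
      rw [if_pos rfl] at h6
      obtain ⟨n, -, hn⟩ := exists_ne_zero_of_sum_ne_zero (h6 ▸ one_ne_zero)
      have h7 := k1 j n
      have h8 : a j m * b m n ≠ 0 := mul_ne_zero h5 (left_ne_zero_of_mul hn)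
      split_ifs at h7 with e
      · subst e
        have := single_le_sum (f := fun m => a n m * b m n) (fun _ _ => Nat.zero_le _)
          (mem_erase.2 ⟨hm, mem_univ m⟩)
        omega
      · exact h8 (sum_eq_zero_iff.1 h7 m (mem_univ m))
    refine ⟨l, fun g => ?_⟩
    have e := congrFun (ha j) g
    rw [sum_eq_single l (fun m _ hm => by simp [h4 m hm]) (by simp), h3] at e
    simpa using e.symm
  choose s hs using this
  refine ⟨Equiv.ofBijective s (Finite.injective_iff_bijective.1 fun j l e => li.injective ?_), hs⟩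
  funext g
  rw [← α.apply_symm_apply g, ← hs, ← hs, e]

theorem mult_inv {s : Equiv.Perm (Fin W.L)} {α : G → G} (hs : ∀ j g, W.φ hM (s j) g = W.φ hM j (α g))
    {m : Fin W.L → ℕ} {β : G → ℂ} (h : β = ∑ j, (m j : ℂ) • W.φ hM j) (h1 : ∀ g, β (α g) = β g)
    (j : Fin W.L) : m (s j) = m j := by
  have := Fintype.linearIndependent_iff.1 (W.linearIndependent_φ hM)
    (fun l => m l - m (s.symm l)) (by
      funext g
      have e := h1 g
      simp only [h, Finset.sum_apply, Pi.smul_apply, ← hs] at e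
      simp only [sub_smul, sum_sub_distrib, Pi.sub_apply, Pi.zero_apply, Finset.sum_apply, Pi.smul_apply,
        ← e, ← Equiv.sum_comp s fun l => (m (s.symm l) : ℂ) • W.φ hM l g, s.symm_apply_apply, sub_self])
    (s j)
  rw [s.symm_apply_apply, sub_eq_zero] at this
  exact_mod_cast this

theorem orbit_sum {J A : Type*} [Fintype J] [AddCommMonoid A] (s : Equiv.Perm J) {n : ℕ}
    (hn : 0 < n) (hs : ∀ j, s^[n] j = j) (v : J → A) (P : A → Prop) (P0 : P 0)
    (Pa : ∀ x y, P x → P y → P (x + y)) (m : J → ℕ) (hm : ∀ j, m (s j) = m j)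
    (h : ∀ j, m j ≠ 0 → ∀ d, d ∣ n → s^[d] j = j → P (∑ i ∈ range d, v (s^[i] j))) :
    P (∑ j, m j • v j) := by
  classical
  induction e : ∑ j, m j using Nat.strong_induction_on generalizing m with | _ N ih =>
  by_cases h0 : ∀ j, m j = 0
  · simpa [h0] using P0
  push Not at h0
  obtain ⟨j, hj⟩ := h0
  set d := Function.minimalPeriod s j
  have d0 : 0 < d := (show Function.IsPeriodicPt s n j from hs j).minimalPeriod_pos hn
  have hd : s^[d] j = j := Function.iterate_minimalPeriod
  set O := (range d).image fun i => s^[i] j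
  have h1 : ∀ l, l ∈ O ↔ ∃ i, s^[i] j = l := fun l => by
    simp only [O, mem_image, mem_range]
    exact ⟨fun ⟨i, _, e⟩ => ⟨i, e⟩, fun ⟨i, e⟩ => ⟨i % d, Nat.mod_lt _ d0, by
      rw [← e]; exact Function.iterate_mod_minimalPeriod_eq⟩⟩
  have h2 : ∀ l ∈ O, m l = m j := fun l hl => by
    obtain ⟨i, rfl⟩ := (h1 l).1 hl
    clear hl
    induction i with
    | zero => rfl
    | succ i ih => rw [Function.iterate_succ_apply', hm, ih]
  have h3 : ∀ l, s l ∈ O ↔ l ∈ O := fun l => by
    rw [h1, h1]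
    refine ⟨fun ⟨i, e⟩ => ⟨i + (d - 1), s.injective ?_⟩, fun ⟨i, e⟩ => ⟨i + 1, ?_⟩⟩
    · rw [← e, ← Function.iterate_succ_apply' s, show (i + (d - 1)).succ = i + d by omega,
        Function.iterate_add_apply, hd]
    · rw [Function.iterate_succ_apply', e]
  have h4 : ∀ l, m l = (m l - if l ∈ O then 1 else 0) + if l ∈ O then 1 else 0 := fun l => by
    split_ifs with hl
    · have := h2 l hl
      omega
    · rfl
  have h5 : ∑ l, m l • v l =
      ∑ l, (m l - if l ∈ O then 1 else 0) • v l + ∑ i ∈ range d, v (s^[i] j) := by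
    rw [← sum_image (s := range d) (g := fun i => s^[i] j) (f := v) fun a ha b hb e =>
      Function.iterate_injOn_Iio_minimalPeriod (mem_range.1 ha) (mem_range.1 hb) e,
      sum_congr rfl fun l _ => congrArg (· • v l) (h4 l)]
    simp only [add_smul, sum_add_distrib, ite_smul, one_smul, zero_smul, sum_ite_mem, univ_inter]
    rfl
  rw [h5]
  refine Pa _ _ (ih _ ?_ _ (fun l => by simp only [hm, h3]) (fun l hl => h l (by omega)) rfl)
    (h j hj d (show Function.IsPeriodicPt s n j from hs j).minimalPeriod_dvd hd)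
  rw [← e]
  exact sum_lt_sum (fun l _ => Nat.sub_le _ _) ⟨j, mem_univ j, by
    rw [if_pos ((h1 j).2 ⟨0, rfl⟩)]; omega⟩

end H0.L2
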