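import Cfsg.Agent.H0.L2.A
import Cfsg.Agent.H0.L2.B
import Cfsg.Agent.H0.BC.Sp6

/-! Subgroups `L₂(3ⁿ)` of `E₈(3)`: composition factors of the adjoint module. -/

set_option autoImplicit false
set_option maxRecDepth 100000

open Cfsg H5 H7 H8 H21 Finset Module H0.BC H14 H23.Sec Cfsg.Lie Matrix Polynomial
open Matrix.SpecialLinearGroup (toGL toGL_injective)
open scoped MatrixGroups

namespace H0.L2

theorem four {l : ℕ} {ζ : ℂ} (hζ : IsPrimitiveRoot ζ l) (l0 : 0 < l) {μ ν : Multiset ℕ}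
    (h : ∀ k : ℕ, (μ.map fun w => (ζ ^ w) ^ k).sum = (ν.map fun w => (ζ ^ w) ^ k).sum) :
    μ.map (· % l) = ν.map (· % l) := by
  have key : ∀ P : ℂ[X], (μ.map fun w => P.eval (ζ ^ w)).sum = (ν.map fun w => P.eval (ζ ^ w)).sum :=
    fun P => by
      induction P using Polynomial.induction_on' with
      | add p q hp hq => simp only [eval_add, Multiset.sum_map_add, hp, hq]
      | monomial n a => simp only [eval_monomial, Multiset.sum_map_mul_left, h]
  ext c
  have cnt : ∀ μ : Multiset ℕ, ((μ.map (· % l)).count c : ℂ) =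
      (μ.map fun w => if c = w % l then (1 : ℂ) else 0).sum := fun μ => by
    induction μ using Multiset.induction_on with
    | empty => simp
    | cons a s ih => simp [Multiset.count_cons, ih, add_comm]
  have := key (Lagrange.interpolate (range l) (ζ ^ ·) fun i => if c = i then 1 else 0)
  have e : ∀ w, (Lagrange.interpolate (range l) (ζ ^ ·) fun i => if c = i then (1 : ℂ) else 0).eval
      (ζ ^ w) = if c = w % l then 1 else 0 := fun w => by
    rw [show ζ ^ w = ζ ^ (w % l) by rw [hζ.eq_orderOf, pow_mod_orderOf]]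
    exact Lagrange.eval_interpolate_at_node _ (fun i hi j hj e => hζ.pow_inj (by simpa using hi)
      (by simpa using hj) e) (mem_range.2 (Nat.mod_lt _ l0))
  simp only [e, ← cnt] at this
  exact_mod_cast this

theorem four' {l : ℕ} {μ ν : Multiset ℕ} (h : μ.map (· % l) = ν.map (· % l)) {A : Type*}
    [AddCommMonoid A] (F : ℕ → A) : (μ.map fun w => F (w % l)).sum = (ν.map fun w => F (w % l)).sum := by
  simpa using congrArg (fun s => (s.map F).sum) h

variable {M : Ideal AlgInt} {δ : Kb 3 →+* kk M} {β : E83 → ℂ}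

theorem cube (h : IsBC (ρ3 δ) β) (hM : IsPModular 3 M) {l : ℕ} (hl : ¬ 3 ∣ l) {s : E83}
    (hs : s ^ l = 1) : β (s ^ 3) = β s := by
  have l0 : l ≠ 0 := fun h => hl (h ▸ dvd_zero 3)
  have hζ := Complex.isPrimitiveRoot_exp l l0
  obtain ⟨ν, -, -, h1, -, ⟨w, -, h2⟩, -⟩ := h.tor8 hM hl hζ hs
  have := h1 1
  simp only [pow_one] at this
  rw [this, h1, ← Equiv.sum_comp w]
  congr 1
  refine sum_congr rfl fun r _ => ?_
  obtain ⟨c, hc⟩ := (ZMod.intCast_eq_intCast_iff_dvd_sub _ _ _).1 (h2 r)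
  rw [← zpow_natCast, ← _root_.zpow_mul, sub_eq_iff_eq_add.1 hc, zpow_add₀ (hζ.ne_zero l0),
    _root_.zpow_mul _ (l : ℤ), zpow_natCast, hζ.pow_eq_one, _root_.one_zpow, one_mul,
    mul_comm (rv ν (w r))]

/-- exponents of the eigenvalues on the adjoint module -/
def rl (l : ℕ) (L : List ℕ) : Multiset ℕ :=
  Multiset.replicate 8 0 + (PR.map fun c => ({dotL c L % l, l - dotL c L % l} : Multiset ℕ)).sum

theorem rl_sum {A : Type*} [AddCommMonoid A] (F : ℕ → A) (l : ℕ) (L : List ℕ) :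
    ((rl l L).map F).sum =
      8 • F 0 + (PR.map fun c => F (dotL c L % l) + F (l - dotL c L % l)).sum := by
  rw [rl, Multiset.map_add, Multiset.sum_add, Multiset.map_replicate, Multiset.sum_replicate]
  congr 1
  induction PR with
  | nil => simp
  | cons c R ih =>
    rw [List.map_cons, List.sum_cons, Multiset.map_add, Multiset.sum_add, ih]
    simp

theorem list8 (h : IsBC (ρ3 δ) β) (hM : IsPModular 3 M) {l : ℕ} (hl : ¬ 3 ∣ l) {ζ : ℂ}
    (hζ : IsPrimitiveRoot ζ l) {s : E83} (hs : s ^ l = 1) {μ : Multiset ℕ}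
    (hμ : ∀ k, β (s ^ k) = (μ.map fun w => (ζ ^ w) ^ k).sum) : ∃ a : Fin 8 → ℕ,
      ∑ i, ![2, 3, 4, 6, 5, 4, 3, 2] i * a i ≤ l ∧ μ.map (· % l) = (rl l (List.ofFn a)).map (· % l) ∧
      ((rl l (List.ofFn a)).map (3 * ·)).map (· % l) = (rl l (List.ofFn a)).map (· % l) := by
  have l0 : l ≠ 0 := fun h => hl (h ▸ dvd_zero 3)
  obtain ⟨ν, h0, h1, h2, -⟩ := h.tor8 hM hl hζ hs
  have h3 : ∀ k, β (s ^ k) = ((rl l (crd ν)).map fun w => (ζ ^ w) ^ k).sum := fun k => by
    rw [h2, sum_roots (fun n => (ζ ^ n) ^ k) h0, rl_sum]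
    congr 2
    · simp
    refine List.map_congr_left fun c _ => ?_
    have e : ζ ^ (dotL c (crd ν) % l) = ζ ^ dotL c (crd ν) := by rw [hζ.eq_orderOf, pow_mod_orderOf]
    rw [pow_sub₀ _ (hζ.ne_zero l0) (Nat.mod_lt _ (by omega)).le, e, hζ.pow_eq_one]
    simp
  refine ⟨fun j => (rv ν (goodE8.R.simple j)).toNat, ?_, four hζ (by omega) fun k => by
    rw [← hμ, h3]; rfl, four hζ (by omega) fun k => ?_⟩
  · have := h1 (239 : Fin 240)
    rw [rv_eq] at this
    have e : ∀ j : Fin 8, cf8 239 j = ((![2, 3, 4, 6, 5, 4, 3, 2] j : ℕ) : ℤ) := by decide +kernel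
    zify
    refine le_of_eq_of_le (sum_congr rfl fun j _ => ?_) this
    rw [Int.toNat_of_nonneg (h0 j), e]
  · have := (h3 k).symm.trans (cube h hM hl (s := s ^ k) (by
      rw [← pow_mul, mul_comm, pow_mul, hs, one_pow])).symm
    rw [← pow_mul, h3] at this
    refine Eq.trans ?_ this.symm
    rw [Multiset.map_map]
    exact congrArg _ (Multiset.map_congr rfl fun w _ => by simp only [Function.comp]; ring)

variable {F : Type*} [Field F] [Fintype F] [CharP F 3]

/-- the Frobenius automorphism -/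
noncomputable def fro : SL(2, F) ≃* SL(2, F) :=
  MulEquiv.ofBijective (Matrix.SpecialLinearGroup.map (frobenius F 3))
    (Finite.injective_iff_bijective.1 fun _ _ e => Matrix.SpecialLinearGroup.ext _ _ fun i j =>
      (frobenius F 3).injective (congrArg (fun x : SL(2, F) => x i j) e))

theorem fro_apply (g : SL(2, F)) (i j : Fin 2) : fro g i j = g i j ^ 3 := rfl

theorem fro_iter (g : SL(2, F)) (n : ℕ) (i j : Fin 2) : (fro^[n] g) i j = g i j ^ 3 ^ n := by
  induction n with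
  | zero => simp
  | succ n ih => rw [Function.iterate_succ_apply', fro_apply, ih, ← pow_mul, pow_succ]

open H13 H13.GL2 H27 in
theorem fro_conj {g : SL(2, F)} (hg : ¬ 3 ∣ orderOf g) : IsConj (g ^ 3) (fro g) := by
  have c3 : (3 : F) = 0 := CharP.cast_eq_zero F 3
  have hd := sl_det g
  by_cases h : Sc (toGL g)
  · obtain ⟨h1, h2, h3⟩ : g 0 1 = 0 ∧ g 1 0 = 0 ∧ g 0 0 = g 1 1 := h
    rw [show fro g = g ^ 3 from sl_ext ?_ ?_ ?_ ?_] <;>
      simp only [fro_apply, pow_three g, sl_mul, h1, h2, h3] <;> ring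
  have key : ∀ k, ¬ Sc (toGL (g ^ 3 ^ k)) := fun k e => by
    obtain ⟨m, hm⟩ := exists_pow_eq_self_of_coprime (x := g) (n := 3 ^ k)
      (Nat.Coprime.pow_left _ ((Nat.Prime.coprime_iff_not_dvd Nat.prime_three).2 hg))
    rw [← hm, map_pow, sc_iff_mem_center] at h
    exact h (_root_.pow_mem (sc_iff_mem_center.1 e) _)
  refine isConj_SL (fun x e => key 2 ?_) (isConj_of (key 1) (fun e => h ?_) ?_ (by rw [dt_toGL', dt_toGL']))
  · rw [show 3 ^ 2 = 3 * 3 from rfl, pow_mul, map_pow, sc_of_isConj (e.pow 3)]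
    simp only [Sc, pow_three, gl_mul_apply, par_00, par_01, par_10, par_11]
    refine ⟨?_, by ring, by ring⟩
    linear_combination (x.1 * x.1) * c3
  · obtain ⟨h1, h2, h3⟩ : g 0 1 ^ 3 = 0 ∧ g 1 0 ^ 3 = 0 ∧ g 0 0 ^ 3 = g 1 1 ^ 3 := by
      simpa only [Sc, toGL_apply, fro_apply] using e
    exact ⟨pow_eq_zero_iff (by norm_num) |>.1 h1, pow_eq_zero_iff (by norm_num) |>.1 h2,
      (frobenius F 3).injective h3⟩
  · simp only [tc, toGL_apply, fro_apply, pow_three g, sl_mul]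
    linear_combination (g 0 0 + g 1 1) * (g 0 1 * g 1 0) * c3

omit [Fintype F] [CharP F 3] in
theorem cen_iff {g : SL(2, F)} (h : g ∈ Subgroup.center SL(2, F)) :
    g 0 1 = 0 ∧ g 0 0 = g 1 1 ∧ g ^ 2 = 1 := by
  obtain ⟨r, h1, h2⟩ := Matrix.SpecialLinearGroup.mem_center_iff.1 h
  have e : ∀ i j, g i j = if i = j then r else 0 := fun i j => by
    simpa [diagonal_apply] using (congrFun (congrFun h2 i) j).symm
  refine ⟨by simp [e], by simp [e], sl_ext ?_ ?_ ?_ ?_⟩ <;> rw [sq, sl_mul] <;>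
    simpa [e, sq] using h1

omit [Fintype F] [CharP F 3] in
theorem neg_one_cen : (-1 : SL(2, F)) ∈ Subgroup.center SL(2, F) :=
  Subgroup.mem_center_iff.2 fun g => by simp

theorem setup {n : ℕ} (hF : Fintype.card F = 3 ^ n) (h : IsBC (ρ3 δ) β) (hM : IsPModular 3 M)
    (h0 : ∀ g, 3 ∣ orderOf g → β g = 0) (f : SL(2, F) →* E83)
    (hf : ∀ g, f g = 1 ↔ g ∈ Subgroup.center _) :
    ∃ (L : ℕ) (s : Equiv.Perm (Fin L)) (m a : Fin L → ℕ) (φ : Fin L → SL(2, F) → ℂ)
      (ι : F →+* kk M), (∀ j, s^[n] j = j) ∧ (∀ j, m (s j) = m j) ∧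
      (∀ g, β (f g) = ∑ j, m j * φ j g) ∧ (∀ j g, φ (s j) g = φ j (fro g)) ∧
      (∀ j, a j < 3 ^ n) ∧ (∀ j, m j ≠ 0 → a j % 2 = 0) ∧
      ∀ j (g : SL(2, F)) (P : Matrix (Fin 2) (Fin 2) (kk M)) (x y : ℂ) (l : ℕ), ¬ 3 ∣ l → g ^ l = 1 →
        x ^ l = 1 → y ^ l = 1 → P.det ≠ 0 → g.1.map ι * P = P * diagonal ![red M x, red M y] →
        ∀ k, φ j (g ^ k) = ∑ i ∈ Bs 3 (a j), (x ^ i * y ^ (a j - i)) ^ k := by
  obtain ⟨W⟩ := exists_wed SL(2, F) M
  have := charP_kk hM
  obtain ⟨ι⟩ : Nonempty (F →+* kk M) := by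
    let := ZMod.algebra (kk M) 3
    let := ZMod.algebra F 3
    exact ⟨(IsAlgClosed.lift : F →ₐ[ZMod 3] kk M)⟩
  obtain ⟨s, hs⟩ := ex_perm W hM (fro (F := F))
  have hsing : ∀ g, 3 ∣ orderOf g → β (f g) = 0 := fun g hg => h0 _ (by
    have := (cen_iff ((hf (g ^ orderOf (f g))).1 (by rw [map_pow, pow_orderOf_eq_one]))).2.2
    rw [← pow_mul, ← orderOf_dvd_iff_pow_eq_one] at this
    exact ((Nat.Prime.dvd_mul Nat.prime_three).1 (hg.trans this)).resolve_right (by norm_num))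
  have hb := bc_sum W hM (h.comp f) hsing
  have nt : ∀ j, Nontrivial (Fin (W.n j) → kk M) := fun j =>
    have : Nonempty (Fin (W.n j)) := ⟨⟨0, W.pos j⟩⟩
    inferInstance
  choose a ha hc using fun j => classify ι (p := 3) (ρj W j) (simple_ρj W j)
  have hφ : ∀ j (g : SL(2, F)) (P : Matrix (Fin 2) (Fin 2) (kk M)) (x y : ℂ) (l : ℕ), ¬ 3 ∣ l →
      g ^ l = 1 → x ^ l = 1 → y ^ l = 1 → P.det ≠ 0 →
      g.1.map ι * P = P * diagonal ![red M x, red M y] →
      ∀ k, W.φ hM j (g ^ k) = ∑ i ∈ Bs 3 (a j), (x ^ i * y ^ (a j - i)) ^ k :=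
    fun j g P x y l hl hg hx hy hP e k => by
      have l0 : l ≠ 0 := fun h => hl (h ▸ dvd_zero 3)
      obtain ⟨b, hb⟩ := hc j g P _ _ hP e
      have a1 := mem_V_of_pow (M := M) l0 hx
      have a2 := mem_V_of_pow (M := M) l0 hy
      rw [(bc_ρj W hM j).cyc hM hl hg b (fun i => x ^ i.1 * y ^ (a j - i.1)) (fun i => by
        rw [mul_pow, ← pow_mul, ← pow_mul, mul_comm _ l, mul_comm _ l, pow_mul, pow_mul, hx, hy]
        simp) (fun i => by
        rw [hb, red_mul (_root_.pow_mem a1 _) (_root_.pow_mem a2 _), red_pow a1, red_pow a2]) k,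
        ← sum_coe_sort (Bs 3 (a j))]
  have hb' : ∀ g, β (f g) = ∑ j, (rnk (op ((ρ3 δ).comp f) (W.i j)) : ℂ) * W.φ hM j g := fun g => by
    simpa [Finset.sum_apply] using congrFun hb g
  refine ⟨W.L, s, _, a, W.φ hM, ι, fun j => (W.linearIndependent_φ hM).injective (funext fun g => ?_),
    mult_inv W hM hs hb fun g => ?_, hb', hs, hF ▸ ha, fun j hj => ?_, hφ⟩
  · have : ∀ n j g, W.φ hM (s^[n] j) g = W.φ hM j (fro^[n] g) := fun n => by
      induction n with
      | zero => simp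
      | succ n ih => intro j g; rw [Function.iterate_succ_apply', hs, ih, Function.iterate_succ_apply]
    rw [this, Matrix.SpecialLinearGroup.ext (fro^[n] g) g fun i j => by
      rw [fro_iter, ← hF, FiniteField.pow_card]]
  · by_cases hg : 3 ∣ orderOf g
    · rw [hsing _ hg, hsing _ (by rwa [MulEquiv.orderOf_eq])]
    · rw [← (h.comp f).cl.eq_of_isConj (fro_conj hg), map_pow,
        cube h hM hg (by rw [← map_pow, pow_orderOf_eq_one, map_one])]
  · have e := fun j => hφ j (-1) 1 (-1) (-1) 2 (by norm_num) (by simp) (by simp) (by simp) (by simp)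
      (by ext i j; fin_cases i <;> fin_cases j <;> simp [red_neg])
    have e1 := hb' ((-1) ^ 1)
    have e0 := hb' ((-1) ^ 0)
    simp only [e] at e0 e1
    rw [pow_one, (hf _).2 neg_one_cen] at e1
    rw [pow_zero, map_one, e1, ← sub_eq_zero, ← sum_sub_distrib] at e0
    have e2 : ∑ j, rnk (op ((ρ3 δ).comp f) (W.i j)) * (#(Bs 3 (a j)) * (a j % 2)) = 0 := by
      have : (-2 : ℂ) * (∑ j, rnk (op ((ρ3 δ).comp f) (W.i j)) * (#(Bs 3 (a j)) * (a j % 2)) : ℕ) = 0 := by
        rw [← e0, Nat.cast_sum, mul_sum]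
        refine sum_congr rfl fun j _ => ?_
        rw [sum_congr rfl fun i hi => show _ = (-1 : ℂ) ^ a j by
          rw [pow_one, ← pow_add, Nat.add_sub_cancel' (Nat.lt_succ_iff.1 (mem_range.1 (mem_filter.1 hi).1))],
          neg_one_pow_eq_pow_mod_two]
        rcases Nat.mod_two_eq_zero_or_one (a j) with e | e <;> simp [e] <;> ring
      simpa only [mul_eq_zero, Nat.cast_eq_zero, neg_eq_zero, OfNat.ofNat_ne_zero, false_or] using this
    have := sum_eq_zero_iff.1 e2 j (mem_univ _)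
    simp only [mul_eq_zero, hj, false_or, card_eq_zero] at this
    exact this.resolve_left (ne_empty_of_mem (a := 0) (by simp [Bs]))

end H0.L2
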