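import Cfsg.Agent.H0.L2.C

/-! `E₈(3)` has no subgroup `L₂(243)`. -/

set_option autoImplicit false
set_option maxRecDepth 100000

open Cfsg H5 H7 H8 H21 Finset Module H0.BC H14 H23.Sec Cfsg.Lie Matrix
open scoped MatrixGroups

namespace H0.L2

/-- digitwise comparison -/
def ok3 : ℕ → ℕ → ℕ → Bool
  | 0, _, _ => true
  | f + 1, a, i => Nat.ble (i % 3) (a % 3) && ok3 f (a / 3) (i / 3)

theorem ok3_iff : ∀ f a i, a < 3 ^ f → i < 3 ^ f → (ok3 f a i = true ↔ ¬ 3 ∣ a.choose i)
  | 0, a, i, h, h' => by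
    obtain rfl : a = 0 := by simpa using h
    obtain rfl : i = 0 := by simpa using h'
    simp [ok3]
  | f + 1, a, i, h, h' => by
    have key : ∀ x < 3, ∀ y < 3, 3 ∣ x.choose y ↔ ¬ y ≤ x := by decide
    rw [ok3, Bool.and_eq_true, ok3_iff f _ _ (by omega) (by omega), Nat.ble_eq,
      (Choose.choose_modEq_choose_mod_mul_choose_div_nat (n := a) (k := i) (p := 3)).dvd_iff dvd_rfl,
      Nat.prime_three.dvd_mul, key (a % 3) (by omega) (i % 3) (by omega)]
    tauto

/-- list form of `Bs` -/
def bl (f a : ℕ) : List ℕ := (List.range (a + 1)).filter (ok3 f a)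

theorem sum_Bs {f a : ℕ} (h : a < 3 ^ f) {A : Type*} [AddCommMonoid A] (F : ℕ → A) :
    ∑ i ∈ Bs 3 a, F i = ((bl f a : Multiset ℕ).map F).sum := by
  rw [Finset.sum, Bs, filter_val, range_val, Multiset.range, Multiset.filter_coe, bl]
  congr 3
  refine List.filter_congr fun i hi => ?_
  have := List.mem_range.1 hi
  rw [Bool.eq_iff_iff, ok3_iff f a i h (by omega), decide_eq_true_iff]

theorem le_of_bl {f a i : ℕ} (h : i ∈ bl f a) : i ≤ a :=
  Nat.lt_succ_iff.1 (List.mem_range.1 (List.mem_filter.1 h).1)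

variable {M : Ideal AlgInt} {F : Type*} [Field F] [Fintype F]

theorem ex_tor (hM : IsPModular 3 M) {N : ℕ} (hF : Fintype.card F = N + 1 + 1) (hN : ¬ 3 ∣ N + 1)
    (ι : F →+* kk M) {ζ : ℂ} (hζ : IsPrimitiveRoot ζ (N + 1)) : ∃ t : Fˣ, orderOf t = N + 1 ∧
      (diaH t).1.map ι * 1 = 1 * diagonal ![red M ζ, red M (ζ ^ N)] := by
  classical
  obtain ⟨c, hc⟩ := IsCyclic.exists_generator (α := Fˣ)
  have oc : orderOf c = N + 1 := by
    rw [orderOf_eq_card_of_forall_mem_zpowers hc, Nat.card_eq_fintype_card, Fintype.card_units, hF]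
    rfl
  have h2 : IsPrimitiveRoot (ι c) (N + 1) :=
    (IsPrimitiveRoot.coe_units_iff.2 (oc ▸ IsPrimitiveRoot.orderOf c)).map_of_injective ι.injective
  have h3 := red_prim hM hN hζ
  obtain ⟨b, -, hb⟩ := h2.eq_pow_of_pow_eq_one h3.pow_eq_one
  rw [← map_pow, ← Units.val_pow_eq_pow_val] at hb
  refine ⟨c ^ b, (IsPrimitiveRoot.coe_units_iff.1
    ((hb ▸ h3).of_map_of_injective ι.injective)).eq_orderOf.symm, ?_⟩
  have : ι ((c ^ b)⁻¹).1 = red M (ζ ^ N) := by
    rw [red_pow (mem_V_of_pow (by omega) hζ.pow_eq_one), Units.val_inv_eq_inv_val, map_inv₀, hb]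
    exact inv_eq_of_mul_eq_one_left (by rw [← pow_succ, h3.pow_eq_one])
  rw [← hb, ← this, mul_one, one_mul]
  generalize c ^ b = t
  ext i j
  fin_cases i <;> fin_cases j <;> simp [diaH, dia]

theorem fro_dia [CharP F 3] (t : Fˣ) : fro (diaH t) = diaH t ^ 3 := by
  rw [← map_pow]
  refine sl_ext ?_ ?_ ?_ ?_ <;> rw [fro_apply] <;> simp [diaH, dia]

theorem fro_wey [CharP F 3] : fro (wey : SL(2, F)) = wey := by
  refine sl_ext ?_ ?_ ?_ ?_ <;> rw [fro_apply] <;> simp [wey]
  norm_num

/-- dimension and trace of the involution -/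
def dtr (f a : ℕ) : ℤ × ℤ := ((bl f a).map fun i => (1, (-1) ^ (a - i + a / 2))).sum

theorem chk243 : (List.range 243).all (fun a => a % 2 == 1 ||
    !(((bl 5 a).map fun i => 256 ^ ((i + 241 * (a - i)) % 242)).sum ==
      ((bl 5 a).map fun i => 256 ^ (3 * (i + 241 * (a - i)) % 242)).sum) ||
    (dtr 5 a == (1, 1) || dtr 5 a == (243, -1))) = true := by decide +kernel

theorem no243 (hF : Fintype.card F = 243) (f : SL(2, F) →* E83)
    (hf : ∀ g, f g = 1 ↔ g ∈ Subgroup.center _) : False := by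
  have : CharP F 3 := charP_of_card_eq_prime_pow (f := 5) hF
  obtain ⟨M, δ, β, hM, h, h0⟩ := ex_bc8
  obtain ⟨L, s, m, a, φ, ι, s5, ms, hβ, hs, ha, ev, hφ⟩ := setup (n := 5) hF h hM h0 f hf
  have w2 : (wey : SL(2, F)) ^ 2 = -1 := by
    refine sl_ext ?_ ?_ ?_ ?_ <;> rw [sq, sl_mul] <;> simp [wey]
  have hI : red M Complex.I * red M Complex.I = -1 := by
    have := mem_V_of_pow (M := M) four_ne_zero Complex.I_pow_four
    rw [← red_mul this this, Complex.I_mul_I, red_neg, red_one]
  have hw := fun j => hφ j wey !![1, 1; red M Complex.I, -red M Complex.I] Complex.I (-Complex.I) 4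
    (by norm_num) (by rw [show 4 = 2 * 2 from rfl, pow_mul, w2]; simp) (by simp)
    (by rw [Even.neg_pow (by decide)]; simp) (fun e => by
      have := charP_kk hM
      have c3 : (3 : kk M) = 0 := CharP.cast_eq_zero _ 3
      rw [det_fin_two_of] at e
      exact one_ne_zero (α := kk M) (by
        linear_combination c3 - red M Complex.I * e - 2 * hI)) (by
      ext i j
      fin_cases i <;> fin_cases j <;> simp [wey, red_neg, mul_apply, hI])
  have h1 : ∀ j, φ j 1 = (dtr 5 (a j)).1 := fun j => by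
    have := hw j 0
    simp only [pow_zero] at this
    rw [this, sum_Bs (ha j), dtr]
    induction bl 5 (a j) with
    | nil => simp
    | cons x L ih => simpa using ih
  have h2 : ∀ j, m j ≠ 0 → φ j wey = (dtr 5 (a j)).2 := fun j hj => by
    have := hw j 1
    simp only [pow_one] at this
    rw [this, sum_congr rfl (g := fun i => (-1 : ℂ) ^ (a j - i + a j / 2)) fun i hi => ?_,
      sum_Bs (ha j), dtr]
    · induction bl 5 (a j) with
      | nil => simp
      | cons x L ih => simpa using ih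
    · have := mem_range.1 (mem_filter.1 hi).1
      have e := ev j hj
      rw [neg_pow, mul_left_comm, ← pow_add, show i + (a j - i) = 2 * (a j / 2) by omega, pow_mul,
        Complex.I_sq, pow_add]
  have hζ := Complex.isPrimitiveRoot_exp 242 (by norm_num)
  generalize Complex.exp _ = ζ at hζ
  obtain ⟨t, ot, ht⟩ := ex_tor hM (N := 241) hF (by norm_num) ι hζ
  have hd := fun j => hφ j _ 1 ζ (ζ ^ 241) 242 (by norm_num)
    (by rw [← map_pow, show 242 = 241 + 1 from rfl, ← ot, pow_orderOf_eq_one, map_one])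
    hζ.pow_eq_one (by rw [← pow_mul, mul_comm, pow_mul, hζ.pow_eq_one, one_pow]) (by simp) ht
  simp only [← pow_mul ζ 241, ← pow_add] at hd
  have := orbit_sum s (n := 5) (by norm_num) s5 (fun j => dtr 5 (a j))
    (fun x => ∃ c : ℕ, x.2 + c ≤ x.1 - 243 * c ∧ 243 * c ≤ x.1 ∧ 5 ∣ x.1 - x.2 - 244 * c)
    ⟨0, by simp⟩ (fun x y ⟨c, hc⟩ ⟨d, hd⟩ => ⟨c + d, by
      simp only [Prod.fst_add, Prod.snd_add]; omega⟩) m ms fun j hj d hd5 e => by
      rcases (Nat.dvd_prime Nat.prime_five).1 hd5 with rfl | rfl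
      · have e1 := four hζ (by norm_num)
          (μ := (bl 5 (a j) : Multiset ℕ).map fun i => i + 241 * (a j - i))
          (ν := (bl 5 (a j) : Multiset ℕ).map fun i => 3 * (i + 241 * (a j - i))) fun k => by
            have := hs j (diaH t ^ k)
            rw [show s j = j from e, map_pow, fro_dia, ← pow_mul, hd, hd, sum_Bs (ha j),
              sum_Bs (ha j)] at this
            simpa only [Multiset.map_map, Function.comp_def, ← pow_mul, mul_comm 3, mul_assoc]
              using this
        have e2 := four' e1 (256 ^ ·)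
        have := List.all_eq_true.1 chk243 (a j) (List.mem_range.2 (ha j))
        simp only [Multiset.map_map, Function.comp_def, Multiset.map_coe, Multiset.sum_coe,
          List.map_map] at e2
        simp only [e2, ev j hj, beq_self_eq_true, Bool.not_true, Bool.or_false, Bool.or_eq_true,
          beq_iff_eq, zero_ne_one, false_or] at this
        rcases this with e | e
        · exact ⟨0, by simp [e]⟩
        · exact ⟨1, by simp [e]⟩
      · have e3 : ∀ i, m (s^[i] j) = m j ∧ dtr 5 (a (s^[i] j)) = dtr 5 (a j) := fun i => by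
          induction i with
          | zero => simp
          | succ i ih =>
            rw [Function.iterate_succ_apply', ms, ← ih.2]
            refine ⟨ih.1, Prod.ext (Int.cast_injective (α := ℂ) ?_) (Int.cast_injective (α := ℂ) ?_)⟩
            · rw [← h1, ← h1, hs, map_one]
            · rw [← h2 _ (by rwa [ms, ih.1]), ← h2 _ (by rwa [ih.1]), hs, fro_wey]
        have e4 : (dtr 5 (a j)).2 ≤ (dtr 5 (a j)).1 ∧ 0 ≤ (dtr 5 (a j)).1 := by
          rw [dtr]
          induction bl 5 (a j) with
          | nil => simp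
          | cons x L ih =>
            rcases neg_one_pow_eq_or ℤ (a j - x + a j / 2) with e | e <;>
              simp only [List.map_cons, List.sum_cons, Prod.fst_add, Prod.snd_add, e] <;> omega
        refine ⟨0, ?_⟩
        simp only [(e3 _).2, sum_const, card_range, Prod.smul_fst, Prod.smul_snd]
        simp only [nsmul_eq_mul]
        omega
  obtain ⟨c, hc⟩ := this
  have a1 : (∑ j, m j • dtr 5 (a j)).1 = 248 := Int.cast_injective (α := ℂ) (by
    have := hβ 1
    rw [map_one, h.one8] at this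
    simp [Prod.fst_sum, ← h1, ← this])
  have a2 : β (f wey) = (∑ j, m j • dtr 5 (a j)).2 := by
    rw [hβ, Prod.snd_sum, Int.cast_sum]
    refine sum_congr rfl fun j _ => ?_
    by_cases hj : m j = 0
    · simp [hj]
    · simp [h2 j hj]
  have a3 := h.tab2 hM (s := f wey) (by rw [← map_pow, w2, hf]; exact neg_one_cen)
    fun e => by simpa [wey] using (cen_iff ((hf _).1 e)).1
  rw [a2] at a3
  rw [a1] at hc
  rcases a3 with e | e
  · rw [show (∑ j, m j • dtr 5 (a j)).2 = -8 by exact_mod_cast e] at hc; omega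
  · rw [show (∑ j, m j • dtr 5 (a j)).2 = 24 by exact_mod_cast e] at hc; omega

end H0.L2
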