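import Cfsg.Agent.H0.L2.D

/-! Combinatorial searches for `L₂(729)` in `E₈(3)`. -/

set_option autoImplicit false
set_option maxRecDepth 100000

open H0.BC H23.Sec

namespace H0.L2

/-- the first digits in base `1024` are bounded -/
def Sm : ℕ → ℕ → ℕ → Prop
  | 0, _, _ => True
  | N + 1, D, S => ∃ c S', c ≤ D ∧ S = c + 1024 * S' ∧ Sm N D S'

/-- guard bits -/
def Gm : ℕ → ℕ
  | 0 => 0
  | N + 1 => 512 + 1024 * Gm N

theorem Sm.zero : ∀ N D, Sm N D 0
  | 0, _ => trivial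
  | N + 1, D => ⟨0, 0, D.zero_le, rfl, Sm.zero N D⟩

theorem Sm.add : ∀ {N D D' S S'}, Sm N D S → Sm N D' S' → Sm N (D + D') (S + S')
  | 0, _, _, _, _, _, _ => trivial
  | _ + 1, _, _, _, _, ⟨c, T, a1, a2, a3⟩, ⟨d, T', b1, b2, b3⟩ =>
    ⟨c + d, T + T', by omega, by omega, a3.add b3⟩

theorem Sm.mono : ∀ {N D D' S}, Sm N D S → D ≤ D' → Sm N D' S
  | 0, _, _, _, _, _ => trivial
  | _ + 1, _, _, _, ⟨c, T, a1, a2, a3⟩, h => ⟨c, T, a1.trans h, a2, a3.mono h⟩

theorem Sm.smul {N D S : ℕ} (h : Sm N D S) : ∀ n, Sm N (n * D) (n * S)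
  | 0 => by simpa using Sm.zero N 0
  | n + 1 => by simpa only [add_mul, one_mul] using (h.smul n).add h

theorem Sm.pow : ∀ N x, Sm N 1 (1024 ^ x)
  | 0, _ => trivial
  | N + 1, 0 => ⟨1, 0, le_rfl, rfl, Sm.zero N 1⟩
  | N + 1, x + 1 => ⟨0, 1024 ^ x, zero_le_one, by ring, Sm.pow N x⟩

theorem Sm.land : ∀ {N S}, Sm N 511 S → S &&& Gm N = 0
  | 0, _, _ => Nat.and_zero _
  | N + 1, _, ⟨c, T, a1, a2, a3⟩ => by
    have := a3.land
    refine Nat.eq_of_testBit_eq fun i => ?_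
    rw [a2, Gm, Nat.testBit_and, add_comm c, add_comm 512, show 1024 = 2 ^ 10 from rfl,
      Nat.testBit_two_pow_mul_add _ (by omega), Nat.testBit_two_pow_mul_add _ (by omega)]
    split_ifs with h
    · rw [show 512 = 2 ^ 9 from rfl, Nat.testBit_two_pow]
      by_cases e : 9 = i
      · rw [← e, Nat.testBit_lt_two_pow (by omega)]; simp
      · simp [e]
    · rw [← Nat.testBit_and, this]; simp

/-- test for `Sm` -/
def smB : ℕ → ℕ → ℕ → Bool
  | 0, _, _ => true
  | N + 1, D, S => Nat.ble (S % 1024) D && smB N D (S / 1024)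

theorem smB_spec : ∀ {N D S}, smB N D S = true → Sm N D S
  | 0, _, _, _ => trivial
  | N + 1, D, S, h => by
    rw [smB, Bool.and_eq_true, Nat.ble_eq] at h
    exact ⟨_, S / 1024, h.1, by omega, smB_spec h.2⟩

/-- `x` can be subtracted digitwise -/
def fit (G x r : ℕ) : Bool := Nat.ble x r && Nat.beq (Nat.land (r - x) G) 0

theorem fit_spec {N x y : ℕ} (h : Sm N 511 y) : fit (Gm N) x (x + y) = true := by
  rw [fit, Nat.add_sub_cancel_left, Bool.and_eq_true, Nat.ble_eq, Nat.beq_eq]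
  exact ⟨by omega, h.land⟩

/-- the trivial weight -/
def l0 : ℕ := 1 + 1024 ^ 19

/-- forget the bound -/
def vv (u : ℕ × ℕ × ℕ × ℕ) : ℕ × ℕ × ℕ := (u.1, u.2.1, u.2.2.1)

/-- combinations -/
def Cmb : List (ℕ × ℕ × ℕ × ℕ) → ℕ × ℕ × ℕ → Prop
  | [], x => ∃ k : ℕ, x = k • (1, l0, 1)
  | u :: U, x => ∃ (n : ℕ) (y : ℕ × ℕ × ℕ), Cmb U y ∧ x = n • vv u + y

theorem Cmb.triv (k : ℕ) : ∀ U, Cmb U (k • (1, l0, 1))
  | [] => ⟨k, rfl⟩
  | _ :: U => ⟨0, _, Cmb.triv k U, by simp⟩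

theorem Cmb.add : ∀ {U x y}, Cmb U x → Cmb U y → Cmb U (x + y)
  | [], _, _, ⟨k, h⟩, ⟨k', h'⟩ => ⟨k + k', by rw [h, h', add_smul]⟩
  | _ :: _, _, _, ⟨n, y, a, h⟩, ⟨n', y', a', h'⟩ =>
    ⟨n + n', y + y', a.add a', by rw [h, h', add_smul, add_add_add_comm]⟩

theorem Cmb.mem (k : ℕ) {u : ℕ × ℕ × ℕ × ℕ} : ∀ {U}, u ∈ U → Cmb U (k • vv u)
  | v :: U, h => by
    rcases List.mem_cons.1 h with rfl | h
    · exact ⟨k, _, Cmb.triv 0 U, by simp⟩
    · exact ⟨0, _, Cmb.mem k h, by simp⟩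

theorem Cmb.le {K : ℕ} (h0 : l0 ≤ K) : ∀ {U x}, Cmb U x → (∀ v ∈ U, v.2.1 ≤ v.1 * K) →
    x.2.1 ≤ x.1 * K
  | [], _, ⟨k, h⟩, _ => by simpa [h] using Nat.mul_le_mul_left k h0
  | u :: U, _, ⟨n, y, a, h⟩, h1 => by
    have := a.le h0 fun v hv => h1 v (by simp [hv])
    have := Nat.mul_le_mul_left n (h1 u (by simp))
    simp only [h, vv, Prod.smul_mk, smul_eq_mul, Prod.fst_add, Prod.snd_add, add_mul, mul_assoc]
    omega

theorem Cmb.sm : ∀ {U x}, Cmb U x → (∀ v ∈ U, smB 27 v.1 v.2.1 = true) → Sm 27 x.1 x.2.1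
  | [], _, ⟨k, h⟩, _ => by
    simpa [h] using (smB_spec (show smB 27 1 l0 = true by decide +kernel)).smul k
  | u :: U, _, ⟨n, y, a, h⟩, h1 => by
    simpa [h, vv] using ((smB_spec (h1 u (by simp))).smul n).add (a.sm fun v hv => h1 v (by simp [hv]))

/-- loop over the multiplicity -/
noncomputable def lp (G : ℕ) (u : ℕ × ℕ × ℕ × ℕ) (ih : ℕ → ℕ → ℕ → Bool) : ℕ → ℕ → ℕ → ℕ → Bool
  | 0, _, _, _ => false
  | f + 1, D, r, a => !(Nat.ble r (D * u.2.2.2)) || (ih D r a && (!(fit G u.2.1 r) ||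
      frc (D - u.1) fun D' => frc (r - u.2.1) fun r' => frc (a + u.2.2.1) fun a' => lp G u ih f D' r' a'))

/-- search for combinations -/
noncomputable def dfs (G : ℕ) (C : List ℕ) : List (ℕ × ℕ × ℕ × ℕ) → ℕ → ℕ → ℕ → Bool
  | [] => fun D r a => !(Nat.beq r (D * l0)) || C.elem (a + D)
  | u :: U => lp G u (dfs G C U) 249

/-- the bounds are correct -/
def gdB : List (ℕ × ℕ × ℕ × ℕ) → Bool
  | [] => true
  | u :: U => Nat.ble l0 u.2.2.2 && ((u :: U).all fun v => Nat.ble v.2.1 (v.1 * u.2.2.2) &&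
      smB 27 v.1 v.2.1) && gdB U

theorem dfs_spec {C : List ℕ} : ∀ {U x a}, gdB U = true → Cmb U x → x.1 ≤ 511 →
    dfs (Gm 27) C U x.1 x.2.1 a = true → a + x.2.2 ∈ C
  | [], _, a, _, ⟨k, h⟩, _, e => by simpa [dfs, h] using e
  | u :: U, x, a, g, h, h1, e => by
    simp only [gdB, Bool.and_eq_true, List.all_eq_true, Nat.ble_eq] at g
    rw [dfs] at e
    generalize 249 = f at e
    induction f generalizing x a with
    | zero => simp [lp] at e
    | succ f ih =>
      have b := h.le g.1.1 fun v hv => (g.1.2 v hv).1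
      simp only [lp, frc_eq, Nat.ble_eq_true_of_le b, Bool.not_true, Bool.false_or,
        Bool.and_eq_true] at e
      obtain ⟨n, y, c, rfl⟩ := h
      rcases n with _ | n
      · rw [zero_smul, zero_add] at e h1 ⊢
        exact dfs_spec g.2 c h1 e.1
      · have c' : Cmb (u :: U) (n • vv u + y) := ⟨n, y, c, rfl⟩
        rw [succ_nsmul', add_assoc] at e h1 ⊢
        generalize n • vv u + y = z at e h1 c'
        simp only [vv, Prod.fst_add, Prod.snd_add, Nat.add_sub_cancel_left] at e h1 ⊢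
        rw [fit_spec ((c'.sm fun v hv => (g.1.2 v hv).2).mono (by omega))] at e
        rw [← add_assoc]
        exact ih _ _ c' (by omega) e.2

/-- subtract the contributions of some roots -/
noncomputable def stp (h : ℕ → ℕ) (G : ℕ) (P : List ℕ) (k : ℕ → Bool) : List (List ℕ) → ℕ → Bool
  | [], r => k r
  | c :: R, r => frc (dotL c P) fun v => frc (h v) fun x =>
      !(fit G x r) || frc (r - x) (stp h G P k R)

/-- pruned search through an alcove -/
noncomputable def go (h : ℕ → ℕ) (G : ℕ) : List (ℕ × List (List ℕ)) → List ℕ → ℕ → ℕ → Bool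
  | [], _, _, _ => false
  | m :: t, P, b, r => (List.range (b / m.1 + 1)).all fun a =>
      frc (b - m.1 * a) fun b' => stp h G (a :: P) (go h G t (a :: P) b') m.2 r

/-- total contribution -/
def tot (h : ℕ → ℕ) : List (ℕ × List (List ℕ)) → List ℕ → List ℕ → ℕ
  | m :: t, P, a :: A => (m.2.map fun c => h (dotL c (a :: P))).sum + tot h t (a :: P) A
  | _, _, _ => 0

/-- value of the highest root -/
def bud : List (ℕ × List (List ℕ)) → List ℕ → ℕ
  | m :: t, a :: A => m.1 * a + bud t A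
  | _, _ => 0

/-- number of roots -/
def nr (t : List (ℕ × List (List ℕ))) : ℕ := (t.map fun m => m.2.length).sum

variable {h : ℕ → ℕ} {N : ℕ} (hh : ∀ v, Sm N 2 (h v))
include hh

theorem sm_sum (P : List ℕ) : ∀ R : List (List ℕ),
    Sm N (2 * R.length) (R.map fun c => h (dotL c P)).sum
  | [] => Sm.zero _ _
  | c :: R => by simpa [mul_add, add_comm] using (sm_sum P R).add (hh (dotL c P))

theorem sm_tot : ∀ t P A, Sm N (2 * nr t) (tot h t P A)
  | [], _, _ => by simpa [tot] using Sm.zero _ _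
  | _ :: _, _, [] => by simpa [tot] using Sm.zero _ _
  | m :: t, P, a :: A => by simpa [tot, nr, mul_add] using (sm_sum hh _ m.2).add (sm_tot t _ A)

theorem stp_spec {P : List ℕ} {k : ℕ → Bool} {D y : ℕ} (hy : Sm N D y) : ∀ R : List (List ℕ),
    2 * R.length + D ≤ 511 →
    stp h (Gm N) P k R ((R.map fun c => h (dotL c P)).sum + y) = true → k y = true
  | [], _, e => by simpa [stp] using e
  | c :: R, h1, e => by
    simp only [List.length_cons] at h1
    simp only [stp, frc_eq, List.map_cons, List.sum_cons, add_assoc, Nat.add_sub_cancel_left] at e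
    rw [fit_spec (((sm_sum hh P R).add hy).mono (by omega))] at e
    exact stp_spec hy R (by omega) e

theorem go_spec : ∀ t P A b, A.length = t.length → (∀ m ∈ t, 0 < m.1) → bud t A ≤ b →
    2 * nr t ≤ 511 → go h (Gm N) t P b (tot h t P A) = true → False
  | [], _, _, _, _, _, _, _, e => by simp [go] at e
  | m :: t, P, a :: A, b, h1, h0, h2, h3, e => by
    simp only [go, frc_eq, List.all_eq_true, List.mem_range, tot, bud] at e h2
    simp only [nr, List.map_cons, List.sum_cons] at h3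
    refine go_spec t (a :: P) A (b - m.1 * a) (by simpa using h1) (fun m hm => h0 m (by simp [hm]))
      (by omega) (by rw [nr]; omega) (stp_spec hh (sm_tot hh t _ A) _ (by rw [nr]; omega) (e a ?_))
    rw [Nat.lt_succ_iff, Nat.le_div_iff_mul_le (h0 m (by simp)), mul_comm]
    omega

end H0.L2
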