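import Cfsg.Agent.H0.L2.F

/-! `E₈(3)` has no subgroup `L₂(729)`. -/

set_option autoImplicit false
set_option maxRecDepth 100000

open Cfsg H5 H7 H8 H21 Finset Module H0.BC H14 H23.Sec Cfsg.Lie Matrix
open scoped MatrixGroups

namespace H0.L2

theorem hs_eq (F : ℕ → ℕ) (l u : ℕ) (L : List ℕ) :
    hs F l u L = ((rl l L).map fun w => F (u * w % l)).sum := by
  simp only [rl_sum, hs, frc_eq, mul_zero, Nat.zero_mod, smul_eq_mul]

theorem tab_mem {F : ℕ → ℕ} {l : ℕ} {T : List ℕ} (c : alcB [2, 3, 4, 6, 5, 4, 3, 2] l (fun L =>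
    frc (hs F l 1 L) fun x => !(Nat.beq (hs F l 3 L) x) || T.elem x) = true) {μ : Multiset ℕ}
    (h : ∃ a : Fin 8 → ℕ, ∑ i, ![2, 3, 4, 6, 5, 4, 3, 2] i * a i ≤ l ∧
      μ.map (· % l) = (rl l (List.ofFn a)).map (· % l) ∧
      ((rl l (List.ofFn a)).map (3 * ·)).map (· % l) = (rl l (List.ofFn a)).map (· % l)) :
    (μ.map fun w => F (w % l)).sum ∈ T := by
  obtain ⟨a, h1, h2, h3⟩ := h
  have := alcB_spec (n := 8) ![2, 3, 4, 6, 5, 4, 3, 2] a l _ (by decide) c h1
  have e := four' h3 F
  rw [Multiset.map_map] at e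
  simp only [frc_eq, hs_eq, one_mul] at this
  simp only [Function.comp_def] at e
  rw [e, ← four' h2 F] at this
  simpa using this

theorem no52 {μ : Multiset ℕ} {a : Fin 8 → ℕ} (h1 : ∑ i, ![2, 3, 4, 6, 5, 4, 3, 2] i * a i ≤ 52)
    (h2 : μ.map (· % 52) = (rl 52 (List.ofFn a)).map (· % 52))
    (h3 : (μ.map fun w => 1024 ^ (w % 52)).sum ∈ C52) : (μ.map fun w => 1024 ^ (w % 52)).sum = 248 := by
  have := List.all_eq_true.1 chk52 _ h3
  rw [Bool.or_eq_true, beq_iff_eq] at this
  refine this.resolve_right fun e => go_spec (h := h52) (N := 52)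
    (fun v => (Sm.pow _ _).add (Sm.pow _ _)) LV [] [a 3, a 4, a 2, a 1, a 5, a 6, a 0, a 7] 52 rfl
    (by decide) ?_ (by decide) ?_
  · simp only [Fin.sum_univ_eight, cons_val_zero, cons_val_one, Matrix.cons_val] at h1
    simp only [bud, LV]
    omega
  · rw [four' h2 (1024 ^ ·), rl_sum, show List.ofFn a = [a 0, a 1, a 2, a 3, a 4, a 5, a 6, a 7] by
      simp [List.ofFn_succ]] at e
    rw [tot_LV]
    simpa [h52] using e

theorem uu_sum (μ : Multiset ℕ) : (μ.map fun w => uu (w % 364)).sum = (μ.card,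
    (μ.map fun w => 1024 ^ (w % 13)).sum + (μ.map fun w => F14 (w % 14)).sum,
    (μ.map fun w => 1024 ^ (w % 52)).sum) := by
  induction μ using Multiset.induction_on with
  | empty => rfl
  | cons w μ ih =>
    rw [Multiset.map_cons, Multiset.sum_cons, ih]
    simp only [Multiset.map_cons, Multiset.sum_cons, uu, Multiset.card_cons, Prod.mk_add_mk,
      Nat.mod_mod_of_dvd w (show 13 ∣ 364 by norm_num), Nat.mod_mod_of_dvd w (show 14 ∣ 364 by norm_num),
      Nat.mod_mod_of_dvd w (show 52 ∣ 364 by norm_num)]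
    rw [add_comm 1, add_add_add_comm]

theorem no729 {F : Type*} [Field F] [Fintype F] (hF : Fintype.card F = 729) (f : SL(2, F) →* E83)
    (hf : ∀ g, f g = 1 ↔ g ∈ Subgroup.center _) : False := by
  have : CharP F 3 := charP_of_card_eq_prime_pow (f := 6) hF
  obtain ⟨M, δ, β, hM, h, h0⟩ := ex_bc8
  obtain ⟨L, s, m, a, φ, ι, s6, ms, hβ, hs, ha, ev, hφ⟩ := setup (n := 6) hF h hM h0 f hf
  have hζ := Complex.isPrimitiveRoot_exp 728 (by norm_num)
  generalize Complex.exp _ = ζ at hζ
  obtain ⟨t, ot, ht⟩ := ex_tor hM (N := 727) hF (by norm_num) ι hζ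
  have t1 : diaH t ^ 728 = 1 := by
    rw [← map_pow, show 728 = 727 + 1 from rfl, ← ot, pow_orderOf_eq_one, map_one]
  have hη : IsPrimitiveRoot (ζ ^ 2) 364 := hζ.pow (by norm_num) rfl
  let W : Fin L → Multiset ℕ := fun j => (bl 6 (a j) : Multiset ℕ).map (wt (a j))
  have hd : ∀ j, m j ≠ 0 → ∀ k, φ j (diaH t ^ k) = ((W j).map fun w => ((ζ ^ 2) ^ w) ^ k).sum :=
    fun j hj k => by
      rw [hφ j _ 1 ζ (ζ ^ 727) 728 (by norm_num) t1 hζ.pow_eq_one
        (by rw [← pow_mul, mul_comm, pow_mul, hζ.pow_eq_one, one_pow]) (by simp) ht, sum_Bs (ha j),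
        Multiset.map_map]
      refine congrArg _ (Multiset.map_congr rfl fun i hi => ?_)
      have := le_of_bl hi
      have := ev j hj
      rw [Function.comp, ← pow_mul ζ, ← pow_mul ζ 2, ← pow_add, wt,
        show 2 * ((i + 727 * (a j - i)) / 2) = i + 727 * (a j - i) by omega]
  generalize ζ ^ 2 = η at hη hd
  have it : ∀ j e, m (s^[e] j) = m j ∧ ∀ k, φ (s^[e] j) (diaH t ^ k) = φ j (diaH t ^ (3 ^ e * k)) :=
    fun j e => by
      induction e with
      | zero => simp
      | succ e ih =>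
        rw [Function.iterate_succ_apply', ms]
        exact ⟨ih.1, fun k => by rw [hs, map_pow, fro_dia, ← pow_mul, ih.2, pow_succ, mul_assoc]⟩
  have hW : ∀ j, m j ≠ 0 → ∀ e, (W (s^[e] j)).map (· % 364) = ((W j).map (3 ^ e * ·)).map (· % 364) :=
    fun j hj e => four hη (by norm_num) fun k => by
      rw [← hd _ (by rwa [(it j e).1]), (it j e).2, hd j hj, Multiset.map_map (f := (3 ^ e * ·))]
      exact congrArg _ (Multiset.map_congr rfl fun w _ => by simp only [Function.comp]; ring)
  have key := orbit_sum s (n := 6) (by norm_num) s6 (fun j => ((W j).map fun w => uu (w % 364)).sum)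
    (fun x => x.1 ≤ 248 → Cmb UU x) (fun _ => by simpa using Cmb.triv 0 UU)
    (fun x y hx hy e => (hx (le_of_add_le_left e)).add (hy (le_of_add_le_right e))) m ms
    fun j hj d hd6 e h248 => by
      have e1 : ∑ i ∈ range d, ((W (s^[i] j)).map fun w => uu (w % 364)).sum = orb (a j) d := by
        rw [sum_congr rfl fun i _ => four' (hW j hj i) uu, orb, ← List.sum_toFinset _ List.nodup_range,
          List.toFinset_range]
        simp [W, Function.comp_def]
      have e2 := four' (hW j hj d) (256 ^ ·)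
      have e3 : d * (bl 6 (a j)).length ≤ 248 := by
        rw [sum_congr rfl fun i _ => four' (hW j hj i) uu] at h248
        simp only [uu_sum, Prod.fst_sum] at h248
        simpa [W] using h248
      rw [e] at e2
      simp only [W, Multiset.map_coe, Multiset.sum_coe, List.map_map, Function.comp_def] at e2
      have := List.all_eq_true.1 chkO (a j) (List.mem_range.2 (ha j))
      rw [ev j hj, Bool.or_eq_true, List.all_eq_true] at this
      have := this.resolve_left (by decide) d (by
        have := Nat.le_of_dvd (by norm_num) hd6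
        interval_cases d <;> revert hd6 <;> decide)
      simp only [Nat.ble_eq_true_of_le e3, e2, Nat.beq_refl, Bool.not_true, Bool.false_or,
        Bool.or_eq_true, beq_iff_eq, List.any_eq_true] at this
      rw [e1]
      rcases this with e | ⟨u, hu, e⟩ <;> rw [e]
      · exact Cmb.triv _ _
      · exact Cmb.mem _ hu
  obtain ⟨μ, hμ⟩ : ∃ μ : Multiset ℕ, ∀ {A : Type} [AddCommMonoid A] (G : ℕ → A),
      (μ.map G).sum = ∑ j, m j • ((W j).map G).sum := ⟨∑ j, m j • W j, fun G => by
    simp only [← Multiset.coe_mapAddMonoidHom, ← Multiset.coe_sumAddMonoidHom, map_sum, map_nsmul]⟩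
  have b1 : ∀ k, β (f (diaH t) ^ k) = (μ.map fun w => (η ^ w) ^ k).sum := fun k => by
    rw [← map_pow, hβ, hμ]
    refine sum_congr rfl fun j _ => ?_
    by_cases hj : m j = 0
    · simp [hj]
    · rw [hd j hj, nsmul_eq_mul]
  have b2 : μ.card = 248 := by
    have := b1 0
    rw [pow_zero, h.one8] at this
    simp only [pow_zero, Multiset.map_const', Multiset.sum_replicate, nsmul_eq_mul, mul_one] at this
    exact_mod_cast this.symm
  have b3 : ∀ {c l : ℕ}, 364 = c * l → (∀ w ∈ μ, l ∣ w) → (f (diaH t) ^ c) = 1 := fun {c l} e hw =>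
    h.eq_one8 hM (l := 2 * l) (fun e' => by
      have := ((Nat.Coprime.dvd_mul_left (by norm_num)).1 e').mul_left c
      omega) (by rw [← pow_mul, mul_left_comm, ← e, ← map_pow, show 2 * 364 = 728 from rfl, t1, map_one]) (by
      rw [b1, Multiset.map_congr rfl (g := fun _ => 1) fun w hw' => ?_]
      · rw [Multiset.map_const', Multiset.sum_replicate, b2, nsmul_one, Nat.cast_ofNat]
      · obtain ⟨x, rfl⟩ := hw w hw'
        rw [← pow_mul, show l * x * c = 364 * x by rw [e]; ring, pow_mul, hη.pow_eq_one, one_pow])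
  have b4 := fun (c l : ℕ) (e : 364 = c * l) (hl : ¬ 3 ∣ l) => list8 h hM hl (hη.pow (by norm_num) e)
    (s := f (diaH t) ^ c) (by rw [← pow_mul, ← e]; exact b3 (l := 1) rfl fun w _ => one_dvd w)
    (μ := μ) fun k => by
      rw [← pow_mul, b1]
      exact congrArg _ (Multiset.map_congr rfl fun w _ => by ring)
  rw [← hμ, uu_sum] at key
  have c1 := tab_mem chk13 (b4 28 13 rfl (by norm_num))
  have c2 := tab_mem chk14 (b4 26 14 rfl (by norm_num))
  obtain ⟨x, x1, x2, -⟩ := b4 7 52 rfl (by norm_num)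
  have c3 := dfs_spec (a := 0) chkG (key b2.le) (b2.trans_le (by norm_num)) (by
    rw [b2]
    exact List.all_eq_true.1 (List.all_eq_true.1 chkD _ c1) _ c2)
  rw [zero_add] at c3
  have c4 := no52 x1 x2 c3
  have c5 := b3 (c := 7) (l := 52) rfl fun w hw => by
    by_contra e
    have := Multiset.sum_lt_sum (s := μ) (f := fun _ => 1) (g := fun w => 1024 ^ (w % 52))
      (fun i _ => Nat.one_le_pow _ _ (by norm_num))
      ⟨w, hw, Nat.one_lt_pow (fun e' => e (Nat.dvd_of_mod_eq_zero e')) (by norm_num)⟩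
    rw [c4, Multiset.map_const', Multiset.sum_replicate, b2] at this
    exact lt_irrefl _ this
  rw [← map_pow, hf] at c5
  have c6 := (cen_iff c5).2.2
  rw [← map_pow, ← map_pow, ← pow_mul] at c6
  have c7 : t ^ (7 * 2) = 1 := Units.ext (congrArg (fun g : SL(2, F) => g 0 0) c6)
  have := orderOf_dvd_of_pow_eq_one c7
  rw [ot] at this
  norm_num at this

end H0.L2
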